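/-
HHS: the case `G = D S` with `D` a normal `2`-group and `S` a `p`-group.
-/
import Cfsg.Agent.HH.M1

set_option autoImplicit false

namespace CfsgHH

open Subgroup CfsgFT
open scoped commutatorElement

theorem solv_arith {c n : ℕ} (hn : 2 ≤ n) (h : c ^ n = n ^ 2) : c = 2 := by
  have h3 : ∀ m : ℕ, (m + 1) ^ 2 < 3 ^ (m + 1) := by
    intro m
    induction m with
    | zero => norm_num
    | succ k ih =>
      have : k + 1 < 3 ^ (k + 1) := Nat.lt_pow_self (by norm_num)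
      rw [pow_succ 3 (k + 1)]
      nlinarith
  rcases Nat.lt_trichotomy c 2 with h1 | h1 | h1
  · have : c ^ n ≤ 1 ^ n := Nat.pow_le_pow_left (by omega) n
    rw [one_pow, h] at this
    nlinarith
  · exact h1
  · obtain ⟨m, rfl⟩ : ∃ m, n = m + 1 := ⟨n - 1, by omega⟩
    have := Nat.pow_le_pow_left (show 3 ≤ c by omega) (m + 1)
    have := h3 m
    omega

variable {Γ : Type*} [Group Γ] [Finite Γ]

theorem RepH.solv_case {G N : Subgroup Γ} {x : Γ} {p : ℕ} (h : RepH G N x p) (l : L1 G x p)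
    (Op : ∀ P ≤ G, IsPGroup p P → P.Normal → P = ⊥)
    (Nab : ∀ A ≤ G, A.Normal → A ≤ 𝒞₁ x → A ≤ N) {D S : Subgroup Γ} (hDG : D ≤ G)
    (nD : D.Normal) (hD : IsPGroup 2 D) (hDx : ¬ D ≤ 𝒞₁ x) (hSG : S ≤ G) (hS : IsPGroup p S)
    (hxS : x ∈ 𝒩 S) (hDS : D ⊔ S = G) : S ≤ 𝒞₁ x := by
  by_contra hSx
  haveI := Fact.mk h.pp
  haveI := Fact.mk Nat.prime_two
  have p2 := h.p2
  have aD : ∀ g, g ∈ 𝒩 D := fun g => by simp [normalizer_eq_top]
  have aD' : ∀ K : Subgroup Γ, K ≤ 𝒩 D := fun K g _ => aD g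
  have nrm : ∀ K : Subgroup Γ, D ≤ 𝒩 K → S ≤ 𝒩 K → x ∈ 𝒩 K → K.Normal := fun K a b c =>
    normalizer_eq_top_iff.1 (eq_top_iff.2 (by
      rw [← h.top, ← hDS]; exact sup_le (sup_le a b) (zpowers_le.2 c)))
  have hT : S ⊓ 𝒞 D = ⊥ := Op _ (inf_le_left.trans hSG) (hS.to_le inf_le_left) (nrm _
    (fun d hd => nrm_of_comm fun a ha => ha.2 d hd)
    (fun s hs => nrm_inf (le_normalizer hs) (nrm_c (aD s))) (nrm_inf hxS (nrm_c (aD x))))
  have key1 : ∀ S0 < S, x ∈ 𝒩 S0 → S0 ≤ 𝒞₁ x := by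
    intro S0 h0 hx
    have sy := syl_sup_r Nat.prime_two h.pp p2.symm hD (hS.to_le h0.le) (aD' S0)
    have lt : D ⊔ S0 < G := lt_of_le_of_ne (sup_le hDG (h0.le.trans hSG)) fun e =>
      h0.ne' (sy.eq_of_le hS h0.le (hSG.trans e.ge))
    obtain ⟨P, hP, pP, nP, gP⟩ := l _ lt (zpowers_le.2 (nrm_sup (aD x) hx))
    have h1 : P ≤ S0 := le_sup_left.trans (sy.eq_of_le (pP.to_sup_of_normal_left'
      (hS.to_le h0.le) (le_sup_right.trans (le_sup_left.trans nP))) le_sup_right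
      (sup_le hP le_sup_right)).le
    have h2 : P ≤ ⊥ := (le_inf (h1.trans h0.le) (comm_eq_bot_pq h.pp Nat.prime_two p2 pP hD
      (le_sup_left.trans (le_sup_left.trans nP)) (aD' P))).trans hT.le
    refine comm_zp_eq_bot.1 (eq_bot_iff.2 fun g hg => ?_)
    obtain ⟨n, hn⟩ := gP g (commutator_mono le_sup_right le_rfl hg)
    obtain ⟨j, hj⟩ := hS ⟨g, h0.le (comm_zp_le hx hg)⟩
    exact mem_of_two_pow ((Nat.coprime_primes h.pp Nat.prime_two).2 p2)
      (congrArg Subtype.val hj) (h2 hn)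
  have hSR : ⁅S, zpowers x⁆ = S := by
    by_contra ne
    have := key1 _ (lt_of_le_of_ne (comm_zp_le hxS) ne) (nrm_comm_zp S x)
    exact hSx (comm_zp_eq_bot.1 ((h.cc hSG hxS).symm.trans (comm_zp_eq_bot.2 this)))
  have key2 : ∀ D0 < D, x ∈ 𝒩 D0 → S ≤ 𝒩 D0 → S ≤ 𝒞 D0 := by
    intro D0 h0 hx hs
    have d0 := hD.to_le h0.le
    have lt : D0 ⊔ S < G := lt_of_le_of_ne (sup_le (h0.le.trans hDG) hSG) fun e =>
      h0.ne' ((syl_sup_l Nat.prime_two h.pp p2.symm d0 hS hs).eq_of_le hD h0.le (hDG.trans e.ge))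
    obtain ⟨P, hP, pP, nP, gP⟩ := l _ lt (zpowers_le.2 (nrm_sup hx hxS))
    have h1 : P ≤ S := le_sup_left.trans ((syl_sup_r Nat.prime_two h.pp p2.symm d0 hS hs).eq_of_le
      (pP.to_sup_of_normal_left' hS (le_sup_right.trans (le_sup_left.trans nP))) le_sup_right
      (sup_le hP le_sup_right)).le
    have h2 : S ≤ P := fun g hg => by
      obtain ⟨n, hn⟩ := gP g (commutator_mono le_sup_right le_rfl (hSR.ge hg))
      obtain ⟨j, hj⟩ := hS ⟨g, hg⟩
      exact mem_of_two_pow ((Nat.coprime_primes h.pp Nat.prime_two).2 p2)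
        (congrArg Subtype.val hj) hn
    obtain rfl := le_antisymm h1 h2
    exact comm_eq_bot_pq h.pp Nat.prime_two p2 pP d0 (le_sup_left.trans (le_sup_left.trans nP)) hs
  have S0 : S ≠ ⊥ := fun e => hSx (e.le.trans bot_le)
  have cS2 : (#S).Coprime 2 :=
    ((Nat.Prime.coprime_iff_not_dvd Nat.prime_two).2
      (not_dvd_of_pg h.pp Nat.prime_two p2 hS)).symm
  obtain ⟨a, ha⟩ := hD.exists_card_eq
  have cSD : (#S).Coprime #D := ha ▸ cS2.pow_right a
  haveI nilD := hD.isNilpotent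
  haveI nilS := hS.isNilpotent
  have hDS' : ⁅D, S⁆ = D := by
    by_contra ne
    have h1 := key2 _ (lt_of_le_of_ne (commutator_le_left D S) ne) (nrm_comm (aD x) hxS)
      fun s hs => nrm_comm (aD s) (le_normalizer hs)
    have h2 := CfsgH2.commutator_commutator_eq (aD' S) cSD (Or.inr inferInstance)
    rw [commutator_eq_bot_iff_le_centralizer.2 (le_centralizer_iff.1 h1)] at h2
    exact S0 (eq_bot_iff.2 ((le_inf le_rfl (le_centralizer_iff.1
      (commutator_eq_bot_iff_le_centralizer.1 h2.symm))).trans hT.le))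
  obtain ⟨der, -, fixS⟩ := special_of_char_abelian hD (aD' S) cS2 hDS' fun H hH nH cH => by
    rcases hH.lt_or_eq with h1 | rfl
    · exact le_centralizer_iff.1 (key2 H h1 (nH (aD x)) fun s _ => nH (aD s))
    · exact (hDx (h.N1 H hDG hD (aD' _) (isMulCommutative_iff_le.1 cH))).elim
  have ZN : ctr D ≤ N := Nab _ (inf_le_left.trans hDG)
    (normalizer_eq_top_iff.1 (eq_top_iff.2 fun g _ => nrm_ctr (aD g)))
    (h.N1 _ (inf_le_left.trans hDG) (hD.to_le inf_le_left) (zpowers_le.2 (nrm_ctr (aD x)))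
      (inf_le_right.trans (centralizer_le inf_le_left)))
  have s := h.sp' hDG hD (aD x)
  have ED : ⁅D, zpowers x⁆ ≤ D := comm_zp_le (aD x)
  have E0 : ⁅D, zpowers x⁆ ≠ ⊥ := fun e => hDx (comm_zp_eq_bot.1 e)
  have ZE : ctr ⁅D, zpowers x⁆ ≤ N :=
    s.der.ge.trans ((commutator_mono ED ED).trans (der.le.trans ZN))
  have idx := h.idx_eq (ED.trans hDG) s E0 ZE
  have hZ : ctr S ⊓ 𝒞₁ x = ⊥ := eq_bot_iff.2 fun c hc => by
    obtain ⟨j, hj⟩ := hS ⟨c, hc.1.1⟩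
    have cx : x * c = c * x := mem_c1.1 hc.2
    have h1 : ⁅D, zpowers x⁆ ≤ 𝒞₁ c := h.n3 (ED.trans hDG) s h.pp p2 (congrArg Subtype.val hj)
      (hSG hc.1.1) cx (nrm_comm (aD c) (nrm_zp cx.symm)) fun z hz => h.Nc z (ZE hz) c
    rcases (inf_le_left : D ⊓ 𝒞₁ c ≤ D).lt_or_eq with h2 | h2
    · have h3 := key2 _ h2 (nrm_inf (aD x) (nrm_c1 cx))
        fun g hg => nrm_inf (aD g) (nrm_c1 (hc.1.2 g hg))
      have h4 : ⁅D, zpowers x⁆ ≤ N := (le_inf ED ((le_inf ED h1).trans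
        (le_centralizer_iff.1 h3))).trans (fixS.le.trans ZN)
      exact (E0 (s.gen.symm.trans (comm_zp_eq_bot.2 fun z hz => mem_c1.2 (h.Nc z (h4 hz) x)))).elim
    · exact hT.le ⟨hc.1.1, fun d hd => (mem_c1.1 (h2.ge hd).2).symm⟩
  have hZS : ctr S = S := by
    by_contra ne
    exact ctr_ne_bot nilS S0 (eq_bot_iff.2 ((le_inf le_rfl (key1 _ (lt_of_le_of_ne inf_le_left ne)
      (nrm_ctr hxS))).trans hZ.le))
  rw [hZS] at hZ
  have cR : (#(zpowers x)).Prime := by rw [Nat.card_zpowers]; exact h.rp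
  have fr : Frob S (zpowers x) (S ⊔ zpowers x) :=
    ⟨⟨eq_bot_iff.2 ((inf_le_inf_left _ (zpowers_le.2 (mem_c1.2 rfl))).trans hZ.le), rfl,
      zpowers_le.2 hxS⟩, S0, fun e => cR.ne_one (by rw [e, card_bot]),
      semiReg_of_prime_card cR (by rw [c_zp, hZ])⟩
  have cop : (#D).Coprime #(S ⊔ zpowers x : Subgroup Γ) :=
    (Nat.Coprime.mul_right cSD.symm (h.copR hDG).symm).coprime_dvd_right
      (by rw [sup_comm, mul_comm, ← CfsgH2.card_sup_mul_card_inf (zpowers_le.2 hxS)]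
          exact dvd_mul_right _ _)
  obtain ⟨w, -, -⟩ := wielandt_frob fr inferInstance (aD' _) cop inferInstance
  have e1 : D ⊓ 𝒞 (S ⊔ zpowers x : Subgroup Γ) = ctr D :=
    le_antisymm ((inf_le_inf_left _ (centralizer_le (le_sup_left : S ≤ S ⊔ zpowers x))).trans
      fixS.le)
      (le_inf inf_le_left fun z hz g _ => h.Nc z (ZN hz) g)
  have ZC : ctr D ≤ D ⊓ 𝒞₁ x := le_inf inf_le_left fun z hz => mem_c1.2 (h.Nc z (ZN hz) x)
  have CE : D ⊓ 𝒞₁ x ≤ 𝒞 ⁅D, zpowers x⁆ := fun c hc g hg => (mem_c1.1 (cent_comm (F := D)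
    (mem_c1.1 hc.2).symm (fun f hf => by
      have := ZN (der.le (commutator_mem_commutator hc.1 hf))
      exact ⟨(h.Nc _ this f).symm, (h.Nc _ this x).symm⟩) hg)).symm
  have DE : ⁅D, zpowers x⁆ ⊔ (D ⊓ 𝒞₁ x) = D := le_antisymm (sup_le ED inf_le_left) fun g hg => by
    obtain ⟨e, he, c, hc, cx, rfl⟩ := h.dec hDG (aD x) hg
    exact mul_mem_sup he ⟨hc, mem_c1.2 cx⟩
  have i1 : (D ⊓ 𝒞₁ x).relIndex D = (orderOf x - 1) ^ 2 := by
    have := CfsgH2.relIndex_sup_of_le_normalizer (H := ⁅D, zpowers x⁆) (K := D ⊓ 𝒞₁ x)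
      ((le_centralizer_iff.1 CE).trans (centralizer_le_normalizer _))
    rw [DE] at this
    rw [this, ← idx, ← s.fix, ← inf_relIndex_right, ← inf_relIndex_right (_ ⊓ 𝒞₁ x)]
    congr 1
    exact le_antisymm (le_inf (le_inf inf_le_right (inf_le_left.trans inf_le_right)) inf_le_right)
      (le_inf (le_inf (inf_le_right.trans ED) (inf_le_left.trans inf_le_right)) inf_le_right)
  rw [e1, fixS, c_zp, Nat.card_zpowers, ← CfsgH2.card_mul_relIndex
    (inf_le_left : D ⊓ 𝒞₁ x ≤ D), i1, ← CfsgH2.card_mul_relIndex ZC] at w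
  have r3 : 2 ≤ orderOf x - 1 := by have := h.rp.two_le; have := h.r2; omega
  have c0 : 0 < (ctr D).relIndex (D ⊓ 𝒞₁ x) := Nat.pos_of_ne_zero index_ne_zero_of_finite
  have z0 : 0 < #(ctr D) := Nat.card_pos
  have c2 : (ctr D).relIndex (D ⊓ 𝒞₁ x) = 2 := by
    refine solv_arith r3 ?_
    obtain ⟨m, hm⟩ : ∃ m, orderOf x = m + 1 := ⟨orderOf x - 1, by omega⟩
    rw [hm] at w
    rw [hm, Nat.add_sub_cancel] at *
    refine Nat.eq_of_mul_eq_mul_left (show 0 < #(ctr D) ^ (m + 1) * (#(ctr D) *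
      (ctr D).relIndex (D ⊓ 𝒞₁ x)) by positivity) ?_
    rw [mul_pow, pow_succ ((ctr D).relIndex _)] at w
    linarith [w]
  have : D ⊓ 𝒞₁ x ≤ ctr D := fun c hc => ⟨hc.1, fun g hg => by
    obtain ⟨e, he, b, hb, bx, rfl⟩ := h.dec hDG (aD x) hg
    have h1 : b * c = c * b := by
      by_cases h1 : b ∈ ctr D
      · exact (h1.2 c hc.1).symm
      by_cases h2 : c ∈ ctr D
      · exact h2.2 b hb
      have h3 : b * c ∈ ctr D := (mul_mem_iff_of_index_two c2 (a := ⟨b, hb, mem_c1.2 bx⟩)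
        (b := ⟨c, hc⟩)).2 (iff_of_false h1 h2)
      exact mul_left_cancel (a := b) (by rw [h3.2 b hb, mul_assoc])
    rw [mul_assoc, h1, ← mul_assoc, CE hc e he, mul_assoc]⟩
  rw [relIndex_eq_one.2 this] at c2
  exact absurd c2 (by norm_num)

end CfsgHH
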